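import Cfsg.Agent.Eq.Def_Blocks
import Cfsg.Agent.ZStar.Corollaries
import Cfsg.Agent.Involution.KleinSylow
import Cfsg.Agent.Transfer.NormalPComplement
import Cfsg.Agent.Blocks.HeightZero.PrincipalSection
import Cfsg.Agent.Blocks.Covering.Basic
import Cfsg.Agent.Blocks.PrincipalLinear
import Cfsg.Agent.Blocks.Orth.Blocks
import Cfsg.Agent.S0941
import Cfsg.Agent.S0948
import Mathlib.LinearAlgebra.Matrix.Rank

/-!
# The principal `2`-block with quaternion Sylow subgroup of order eight
-/

set_option autoImplicit false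
set_option linter.unusedSectionVars false

namespace CfsgLib.QuatEightBlock

open Cfsg CfsgLib CfsgLib.Blocks
open scoped ComplexConjugate ComplexOrder

universe u

theorem quat_unique_involution :
    ∀ a : QuaternionGroup 2, a * a = 1 → a = 1 ∨ a = QuaternionGroup.a 2 := by decide

theorem quat_sq : ∀ a : QuaternionGroup 2, a * a = 1 ∨ a * a = QuaternionGroup.a 2 := by decide

theorem quat_centralizer : ∀ a b : QuaternionGroup 2, a * a ≠ 1 → a * b = b * a →
    b = 1 ∨ b = a ∨ b = a * a ∨ b = a * a * a := by decide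

variable {G : Type u} [Group G] [Fintype G] {S : Sylow 2 G}

/-- The centre `⟨z⟩` seen inside the Sylow subgroup. -/
structure Setting (S : Sylow 2 G) (z : G) : Prop where
  card : Nat.card (S : Subgroup G) = 8
  central : z ∈ Subgroup.center G
  order : orderOf z = 2
  mem : z ∈ (S : Subgroup G)
  sq : ∀ x ∈ (S : Subgroup G), x * x = 1 ∨ x * x = z
  unique : ∀ x ∈ (S : Subgroup G), x * x = 1 → x = 1 ∨ x = z
  cent : ∀ x ∈ (S : Subgroup G), x * x ≠ 1 → ∀ y ∈ (S : Subgroup G), x * y = y * x →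
    y ∈ Subgroup.zpowers x

theorem exists_setting (e : (S : Subgroup G) ≃* QuaternionGroup 2)
    (hO : ∀ N : Subgroup G, N.Normal → Odd (Nat.card N) → N = ⊥) :
    ∃ z : G, Setting S z ∧ Subgroup.center G = Subgroup.zpowers z := by
  haveI : Fact (Nat.Prime 2) := ⟨Nat.prime_two⟩
  have hc : Nat.card (Subgroup.center G) = 2 :=
    CfsgLib.ZStar.card_center_eq_two_of_quaternion S 0 e hO
  obtain ⟨⟨z, hzc⟩, hz⟩ := exists_prime_orderOf_dvd_card' 2 (dvd_of_eq hc.symm)
  rw [Subgroup.orderOf_mk] at hz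
  have hZ : Subgroup.center G = Subgroup.zpowers z :=
    (Subgroup.eq_of_le_of_card_ge (Subgroup.zpowers_le.2 hzc)
      (by rw [hc, Nat.card_zpowers, hz])).symm
  have hzS : z ∈ (S : Subgroup G) := by
    obtain ⟨R, hR⟩ := (IsPGroup.of_card (G := Subgroup.zpowers z) (n := 1)
      (by rw [Nat.card_zpowers, hz, pow_one]) : IsPGroup 2 _).exists_le_sylow
    obtain ⟨g, rfl⟩ := MulAction.exists_smul_eq G S R
    have h := hR (Subgroup.mem_zpowers z)
    rw [Sylow.coe_subgroup_smul] at h
    obtain ⟨y, hy, hyz⟩ := h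
    have he : g * y * g⁻¹ = z := hyz
    have : y = z := by
      rw [show y = g⁻¹ * (g * y * g⁻¹) * g by group, he,
        mul_assoc, ← Subgroup.mem_center_iff.1 hzc g, inv_mul_cancel_left]
    exact this ▸ hy
  have hz2 : z * z = 1 := by rw [← pow_two, ← hz, pow_orderOf_eq_one]
  have hz1 : z ≠ 1 := fun h => by simp [h] at hz
  have hez : e ⟨z, hzS⟩ = QuaternionGroup.a 2 := by
    rcases quat_unique_involution (e ⟨z, hzS⟩)
      (by rw [← map_mul, ← map_one e]; exact congrArg e (Subtype.ext hz2)) with h | h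
    · exact absurd (congrArg Subtype.val (e.map_eq_one_iff.1 h)) hz1
    · exact h
  refine ⟨z, ⟨?_, hzc, hz, hzS, fun x hx => ?_, fun x hx hxx => ?_, fun x hx hxx y hy hxy => ?_⟩, hZ⟩
  · rw [Nat.card_congr e.toEquiv, Nat.card_eq_fintype_card, QuaternionGroup.card]
  · rcases quat_sq (e ⟨x, hx⟩) with h | h
    · left
      rw [← map_mul, e.map_eq_one_iff] at h
      exact congrArg Subtype.val h
    · right
      rw [← map_mul, ← hez] at h
      exact congrArg Subtype.val (e.injective h)
  · rcases quat_unique_involution (e ⟨x, hx⟩)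
      (by rw [← map_mul, ← map_one e]; exact congrArg e (Subtype.ext hxx)) with h | h
    · left; exact congrArg Subtype.val (e.map_eq_one_iff.1 h)
    · right; rw [← hez] at h; exact congrArg Subtype.val (e.injective h)
  · have h1 : e ⟨x, hx⟩ * e ⟨x, hx⟩ ≠ 1 := fun h => by
      rw [← map_mul, e.map_eq_one_iff] at h
      exact hxx (congrArg Subtype.val h)
    have h2 : e ⟨x, hx⟩ * e ⟨y, hy⟩ = e ⟨y, hy⟩ * e ⟨x, hx⟩ := by
      rw [← map_mul, ← map_mul]; exact congrArg e (Subtype.ext hxy)
    rcases quat_centralizer _ _ h1 h2 with h | h | h | h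
    · rw [e.map_eq_one_iff] at h
      rw [show y = 1 from congrArg Subtype.val h]; exact Subgroup.one_mem _
    · rw [show y = x from congrArg Subtype.val (e.injective h)]; exact Subgroup.mem_zpowers x
    · rw [← map_mul] at h
      rw [show y = x * x from congrArg Subtype.val (e.injective h)]
      exact mul_mem (Subgroup.mem_zpowers x) (Subgroup.mem_zpowers x)
    · rw [← map_mul, ← map_mul] at h
      rw [show y = x * x * x from congrArg Subtype.val (e.injective h)]
      exact mul_mem (mul_mem (Subgroup.mem_zpowers x) (Subgroup.mem_zpowers x))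
        (Subgroup.mem_zpowers x)

variable {z : G}

/-- Every element of a `2`-subgroup is conjugate into `S`. -/
theorem exists_conj_mem {Q : Subgroup G} (hQ : IsPGroup 2 Q) :
    ∃ g : G, ∀ x ∈ Q, g⁻¹ * x * g ∈ (S : Subgroup G) := by
  haveI : Fact (Nat.Prime 2) := ⟨Nat.prime_two⟩
  obtain ⟨R, hR⟩ := hQ.exists_le_sylow
  obtain ⟨g, rfl⟩ := MulAction.exists_smul_eq G S R
  refine ⟨g, fun x hx => ?_⟩
  have h := hR hx
  rw [Sylow.coe_subgroup_smul] at h
  obtain ⟨y, hy, hyx⟩ := h
  have he : g * y * g⁻¹ = x := hyx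
  rw [← he, show g⁻¹ * (g * y * g⁻¹) * g = y by group]
  exact hy

theorem zpowers_isPGroup {x : G} {k : ℕ} (h : orderOf x = 2 ^ k) :
    IsPGroup 2 (Subgroup.zpowers x) :=
  IsPGroup.of_card (n := k) (by rw [Nat.card_zpowers, h])

theorem conj_eq_self (hs : Setting S z) (g : G) : g⁻¹ * z * g = z := by
  rw [mul_assoc, ← Subgroup.mem_center_iff.1 hs.central g, inv_mul_cancel_left]

/-- A `2`-element is `1`, `z` or of order four with square `z`. -/
theorem two_element_cases (hs : Setting S z) {x : G} (hx : ∃ k : ℕ, orderOf x = 2 ^ k) :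
    x = 1 ∨ x = z ∨ (orderOf x = 4 ∧ x * x = z) := by
  obtain ⟨k, hk⟩ := hx
  obtain ⟨g, hg⟩ := exists_conj_mem (S := S) (zpowers_isPGroup hk)
  have hy := hg x (Subgroup.mem_zpowers x)
  have hback : ∀ w : G, g⁻¹ * w * g = z → w = z := fun w h => by
    rw [show w = g * (g⁻¹ * w * g) * g⁻¹ by group, h, Subgroup.mem_center_iff.1 hs.central g,
      mul_inv_cancel_right]
  have hsqc : g⁻¹ * x * g * (g⁻¹ * x * g) = g⁻¹ * (x * x) * g := by group
  rcases hs.sq _ hy with h | h
  · rcases hs.unique _ hy h with h' | h'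
    · left
      rw [show x = g * (g⁻¹ * x * g) * g⁻¹ by group, h']; simp
    · exact Or.inr (Or.inl (hback x h'))
  · right; right
    have hxx : x * x = z := hback _ (by rw [← hsqc]; exact h)
    refine ⟨?_, hxx⟩
    have hz1 : z ≠ 1 := fun h => by simpa [h] using hs.order
    refine orderOf_eq_prime_pow (p := 2) (n := 1) ?_ ?_
    · rw [pow_one, pow_two, hxx]; exact hz1
    · rw [show (2 : ℕ) ^ (1 + 1) = 2 * 2 by norm_num, pow_mul, pow_two x, hxx, ← hs.order,
        pow_orderOf_eq_one]

variable {M : Ideal AlgInt}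

open scoped Classical in
/-- The principal block on the section of an element of order four. -/
theorem section_four (hM : IsPModular 2 M) (hs : Setting S z) {u : G} (hu : orderOf u = 4) :
    (∀ χ ∈ principalBlock M G, ∀ s : G, Commute u s → ¬ 2 ∣ orderOf s →
        (χ : G → ℂ) (u * s) = (χ : G → ℂ) u) ∧
      (∑ χ ∈ (principalBlock M G).toFinite.toFinset, ‖(χ : G → ℂ) u‖ ^ 2) ≤ 4 := by
  haveI : Fact (Nat.Prime 2) := ⟨Nat.prime_two⟩
  haveI := isMaximal_of_isPModular hM
  set C := Subgroup.centralizer ({u} : Set G) with hC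
  have huC : u ∈ C := Subgroup.mem_centralizer_singleton_iff.2 rfl
  have hu2 : u * u ≠ 1 := fun h => by
    have h2 : orderOf u ∣ 2 := orderOf_dvd_of_pow_eq_one (by rw [pow_two]; exact h)
    rw [hu] at h2
    norm_num at h2
  obtain ⟨T⟩ : Nonempty (Sylow 2 C) := inferInstance
  set v : C := ⟨u, huC⟩ with hv
  have hvc : ∀ c : C, v * c = c * v := fun c => Subtype.ext
    (Subgroup.mem_centralizer_singleton_iff.1 c.2).symm
  have hvord : orderOf v = 4 := by rw [← hu, hv, Subgroup.orderOf_mk]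
  have hvp : IsPGroup 2 (Subgroup.zpowers v) :=
    IsPGroup.of_card (n := 2) (by rw [Nat.card_zpowers, hvord]; norm_num)
  haveI : (Subgroup.zpowers v).Normal := ⟨fun c hc g => by
    obtain ⟨i, rfl⟩ := hc
    refine ⟨i, ?_⟩
    show v ^ i = g * v ^ i * g⁻¹
    rw [((show Commute v g from hvc g).zpow_left i).symm.eq, mul_inv_cancel_right]⟩
  have hvT : v ∈ (T : Subgroup C) := hvp.le_sylow_of_normal T (Subgroup.mem_zpowers v)
  have hTeq : (T : Subgroup C) = Subgroup.zpowers v := by
    refine le_antisymm (fun t ht => ?_) (Subgroup.zpowers_le.2 hvT)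
    obtain ⟨g, hg⟩ := exists_conj_mem (S := S) (T.2.map C.subtype)
    have h1 := hg u ⟨v, hvT, rfl⟩
    have h2 := hg (t : G) ⟨t, ht, rfl⟩
    have h3 : g⁻¹ * u * g * (g⁻¹ * (t : G) * g) = g⁻¹ * (t : G) * g * (g⁻¹ * u * g) := by
      rw [show g⁻¹ * u * g * (g⁻¹ * (t : G) * g) = g⁻¹ * (u * t) * g by group,
        show g⁻¹ * (t : G) * g * (g⁻¹ * u * g) = g⁻¹ * ((t : G) * u) * g by group,
        congrArg Subtype.val (hvc t) |> (fun h => show u * (t : G) = (t : G) * u from h)]
    have h4 : g⁻¹ * u * g * (g⁻¹ * u * g) ≠ 1 := fun h => hu2 (by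
      rw [show u * u = g * (g⁻¹ * u * g * (g⁻¹ * u * g)) * g⁻¹ by group, h]; simp)
    obtain ⟨i, hi⟩ := hs.cent _ h1 h4 _ h2 h3
    refine ⟨i, Subtype.ext ?_⟩
    show ((v ^ i : C) : G) = (t : G)
    push_cast
    show u ^ i = (t : G)
    have hi' : (g⁻¹ * u * g) ^ i = g⁻¹ * (t : G) * g := hi
    rw [show (g⁻¹ * u * g) ^ i = g⁻¹ * u ^ i * g by
      have := conj_zpow (i := i) (a := g⁻¹) (b := u)
      rwa [inv_inv] at this] at hi'
    exact mul_left_cancel (mul_right_cancel hi')
  have hnc : Cfsg.HasNormalPComplement 2 C := by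
    refine CfsgLib.Transfer.hasNormalPComplement_of_normalizer_le_centralizer T fun c _ => ?_
    rw [Subgroup.mem_centralizer_iff]
    intro t ht
    replace ht : t ∈ (T : Subgroup C) := ht
    rw [hTeq] at ht
    obtain ⟨i, rfl⟩ := ht
    exact ((show Commute v c from hvc c).zpow_left i).eq
  obtain ⟨K, hK, hKT⟩ := CfsgLib.Transfer.exists_isComplement' hnc T
  haveI := hK
  have hKidx : K.index = 2 ^ 2 := by
    rw [hKT.symm.index_eq_card, hTeq, Nat.card_zpowers, hvord]; norm_num
  have hKodd : ¬ 2 ∣ Nat.card K := by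
    intro h
    have hcard : Nat.card C = Nat.card K * 2 ^ 2 := by rw [← hKidx, Subgroup.card_mul_index]
    have hT := T.card_eq_multiplicity
    rw [hTeq, Nat.card_zpowers, hvord, hcard, Nat.factorization_mul Nat.card_pos.ne' (by norm_num),
      Finsupp.add_apply, Nat.prime_two.factorization_pow, Finsupp.single_eq_same] at hT
    have h1 : 1 ≤ (Nat.card K).factorization 2 :=
      (Nat.prime_two.pow_dvd_iff_le_factorization Nat.card_pos.ne').1 (by rwa [pow_one])
    have h2 : (2 : ℕ) ^ 3 ≤ 4 := by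
      rw [hT]
      exact Nat.pow_le_pow_right (by norm_num) (by omega)
    norm_num at h2
  have hker : ∀ ψ ∈ principalBlock M C, K ≤ Chars.charKer (ψ : C → ℂ) := fun ψ hψ =>
    CfsgLib.Blocks.PrincipalLinear.le_charKer hM hψ K hKodd
  have hKreg : ∀ s : C, ¬ 2 ∣ orderOf s → s ∈ K :=
    CfsgLib.BlocksCover.mem_of_index_prime_pow Nat.prime_two K hKidx
  have hu2p : ∃ e : ℕ, orderOf u = 2 ^ e := ⟨2, by rw [hu]; norm_num⟩
  refine ⟨fun χ hχ s hcomm hsodd => ?_, ?_⟩
  · have hsC : s ∈ C := Subgroup.mem_centralizer_singleton_iff.2 hcomm.symm.eq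
    have hs' : ¬ 2 ∣ orderOf (⟨s, hsC⟩ : C) := by rwa [Subgroup.orderOf_mk]
    have h1 := HeightZero.apply_section_eq_blockPart hM hu2p hχ (s := ⟨s, hsC⟩) hs'
    have h2 := HeightZero.apply_section_eq_blockPart hM hu2p hχ (s := (1 : C))
      (by rw [orderOf_one]; norm_num)
    rw [OneMemClass.coe_one, mul_one] at h2
    rw [show u * s = u * ((⟨s, hsC⟩ : C) : G) from rfl, h1, h2]
    simp only [blockPart]
    refine finsum_mem_congr rfl fun ψ hψ => ?_
    rw [Chars.map_eq_map_one_of_mem_charKer (hker ψ hψ (hKreg _ hs'))]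
  · have h := HeightZero.sum_principal_section hM hu2p (s := (1 : C))
      (by rw [orderOf_one]; norm_num)
    rw [OneMemClass.coe_one, mul_one] at h
    have hle : (∑ χ ∈ (principalBlock M G).toFinite.toFinset, ‖(χ : G → ℂ) u‖ ^ 2) =
        ∑ ψ ∈ (principalBlock M C).toFinite.toFinset, ((charDegree (ψ : C → ℂ) : ℝ)) ^ 2 := by
      apply Complex.ofReal_injective
      push_cast
      rw [Finset.sum_congr rfl (g := fun χ : IrrCharacter G => (χ : G → ℂ) u * conj ((χ : G → ℂ) u))
        fun χ _ => (Complex.mul_conj' _).symm, h]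
      refine Finset.sum_congr rfl fun ψ _ => ?_
      rw [← Chars.coe_charDegree, Complex.conj_natCast, sq]
    rw [hle]
    have h4 := Chars.sum_charDegree_sq_of_le_charKer (N := K) (G := C)
    rw [hKidx] at h4
    have hcast : ((∑ χ ∈ Finset.univ.filter (fun χ : IrrCharacter C => K ≤ Chars.charKer (χ : C → ℂ)),
      charDegree (χ : C → ℂ) ^ 2 : ℕ) : ℝ) = 4 := by rw [h4]; norm_num
    push_cast at hcast
    rw [← hcast]
    refine Finset.sum_le_sum_of_subset_of_nonneg (fun ψ hψ => ?_) fun _ _ _ => by positivity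
    exact Finset.mem_filter.2 ⟨Finset.mem_univ _, hker ψ ((Set.Finite.mem_toFinset _).1 hψ)⟩

/-- No normal `2`-complement in the central quotient. -/
theorem quotient_one_class (hs : Setting S z)
    (hO : ∀ N : Subgroup G, N.Normal → Odd (Nat.card N) → N = ⊥) (hG : (S : Subgroup G) ≠ ⊤)
    (Z : Subgroup G) [Z.Normal] (hZ : Z = Subgroup.zpowers z) :
    ∃ P : Sylow 2 (G ⧸ Z), IsKleinFour (P : Subgroup (G ⧸ Z)) ∧
      ∀ s t : G ⧸ Z, orderOf s = 2 → orderOf t = 2 → IsConj s t := by
  haveI : Fact (Nat.Prime 2) := ⟨Nat.prime_two⟩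
  have hZcard : Nat.card Z = 2 := by rw [hZ, Nat.card_zpowers, hs.order]
  have hzZ : z ∈ Z := by rw [hZ]; exact Subgroup.mem_zpowers z
  set q := QuotientGroup.mk' Z with hq
  set P := S.mapSurjective (QuotientGroup.mk'_surjective Z) with hP
  have hPcoe : (P : Subgroup (G ⧸ Z)) = (S : Subgroup G).map q := rfl
  have hPsq : ∀ a ∈ (P : Subgroup (G ⧸ Z)), a * a = 1 := by
    rw [hPcoe]
    rintro _ ⟨x, hx, rfl⟩
    rw [← map_mul]
    rcases hs.sq x hx with h | h <;> rw [h]
    · exact map_one q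
    · exact (QuotientGroup.eq_one_iff _).2 hzZ
  have hPcard : Nat.card (P : Subgroup (G ⧸ Z)) = 4 := by
    rw [hPcoe, ← Subgroup.relIndex_ker, hq, QuotientGroup.ker_mk']
    have h1 := Subgroup.relIndex_mul_relIndex (⊥ : Subgroup G) Z (S : Subgroup G) bot_le
      (by rw [hZ]; exact Subgroup.zpowers_le.2 hs.mem)
    rw [Subgroup.relIndex_bot_left, Subgroup.relIndex_bot_left, hs.card, hZcard] at h1
    omega
  have hPK : IsKleinFour (P : Subgroup (G ⧸ Z)) := by
    haveI : Nontrivial (P : Subgroup (G ⧸ Z)) :=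
      Finite.one_lt_card_iff_nontrivial.1 (by rw [hPcard]; norm_num)
    refine ⟨hPcard, ?_⟩
    obtain ⟨a, ha⟩ := exists_ne (1 : (P : Subgroup (G ⧸ Z)))
    refine dvd_antisymm (Monoid.exponent_dvd_of_forall_pow_eq_one fun b => Subtype.ext ?_) ?_
    · rw [SubgroupClass.coe_pow, pow_two]; exact hPsq b b.2
    · have hord : orderOf a = 2 := orderOf_eq_prime
        (Subtype.ext (by rw [SubgroupClass.coe_pow, pow_two]; exact hPsq a a.2)) ha
      exact (dvd_of_eq hord.symm).trans (Monoid.order_dvd_exponent a)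
  refine ⟨P, hPK, ?_⟩
  rcases CfsgLib.Involution.klein_fusion P hPK with ⟨-, hnc⟩ | h1
  · exfalso
    have hcompl : Cfsg.HasNormalPComplement 2 (G ⧸ Z) :=
      CfsgLib.Transfer.hasNormalPComplement_of_normalizer_le_centralizer P hnc
    obtain ⟨L, hL, hLP⟩ := CfsgLib.Transfer.exists_isComplement' hcompl P
    haveI := hL
    set N := L.comap q with hN
    have hNidx : N.index = 4 := by
      rw [hN, Subgroup.index_comap_of_surjective _ (QuotientGroup.mk'_surjective Z),
        hLP.symm.index_eq_card, hPcard]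
    have hZN : Z ≤ N := fun x hx => by
      rw [hN, Subgroup.mem_comap, hq, show QuotientGroup.mk' Z x = 1 from
        (QuotientGroup.eq_one_iff x).2 hx]
      exact L.one_mem
    set Z' := Z.subgroupOf N with hZ'
    have hZ'card : Nat.card Z' = 2 := by
      rw [hZ', Nat.card_congr (Subgroup.subgroupOfEquivOfLe hZN).toEquiv, hZcard]
    have hG8 : Nat.card G = Nat.card N * 4 := by rw [← hNidx, Subgroup.card_mul_index]
    obtain ⟨m, hm⟩ : 2 ∣ Nat.card N := hZ'card ▸ Subgroup.card_subgroup_dvd_card Z'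
    have hodd : ¬ 2 ∣ m := by
      rintro ⟨t, rfl⟩
      have h := S.card_eq_multiplicity
      rw [hs.card, hG8, hm] at h
      have h16 : 2 ^ 4 ∣ 2 * (2 * t) * 4 := ⟨t, by ring⟩
      rw [Nat.prime_two.pow_dvd_iff_le_factorization (by rw [← hm, ← hG8]; exact Nat.card_pos.ne')] at h16
      have : (2 : ℕ) ^ 4 ≤ 8 := by rw [h]; exact Nat.pow_le_pow_right (by norm_num) h16
      norm_num at this
    -- split off the central subgroup
    haveI : Z'.Normal := inferInstance
    have hZ'idx : Z'.index = m := by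
      have h := Subgroup.card_mul_index Z'
      rw [hZ'card, hm] at h
      omega
    obtain ⟨K, hK⟩ := Subgroup.exists_right_complement'_of_coprime (N := Z')
      (by rw [hZ'card, hZ'idx]; exact (Nat.prime_two.coprime_iff_not_dvd).2 hodd)
    have hKodd : Odd (Nat.card K) := by
      have h := hK.card_mul
      rw [hZ'card, hm] at h
      rw [show Nat.card K = m by omega, Nat.odd_iff]
      omega
    -- it consists of all elements of odd order
    have hmemK : ∀ x : N, ¬ 2 ∣ orderOf x → x ∈ K := by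
      intro x hx
      obtain ⟨⟨⟨a, ha⟩, ⟨b, hb⟩⟩, hab⟩ := hK.2 x
      have hac : ∀ y : N, a * y = y * a := fun y => Subtype.ext (by
        have hcen : (a : G) ∈ Subgroup.center G := by
          have : (a : G) ∈ Z := ha
          rw [hZ] at this
          exact (Subgroup.zpowers_le.2 hs.central) this
        exact (Subgroup.mem_center_iff.1 hcen (y : G)).symm)
      have hab' : a * b = x := hab
      have ha2 : a ^ 2 = 1 := by
        have h : (⟨a, ha⟩ : Z') ^ Nat.card Z' = 1 := pow_card_eq_one'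
        rw [hZ'card] at h
        exact congrArg Subtype.val h
      obtain ⟨j, hj⟩ := Nat.odd_iff.2 (show orderOf x % 2 = 1 by omega)
      have hpow : a ^ orderOf x * b ^ orderOf x = 1 := by
        rw [← (show Commute a b from hac b).mul_pow, hab', pow_orderOf_eq_one]
      rw [hj, pow_succ a, pow_mul, ha2, one_pow, one_mul] at hpow
      have haK : a ∈ K := by
        rw [eq_inv_of_mul_eq_one_left hpow]
        exact K.inv_mem (K.pow_mem hb _)
      rw [← hab']
      exact K.mul_mem haK hb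
    have hKn : (K.map N.subtype).Normal := ⟨by
      rintro _ ⟨x, hx, rfl⟩ g
      have hN' : N.Normal := by rw [hN]; infer_instance
      refine ⟨⟨g * x * g⁻¹, hN'.conj_mem _ x.2 g⟩, hmemK _ ?_, rfl⟩
      rw [← Subgroup.orderOf_coe]
      show ¬ 2 ∣ orderOf (MulAut.conj g (x : G))
      rw [MulEquiv.orderOf_eq, Subgroup.orderOf_coe]
      intro h
      have h2 := h.trans (Subgroup.orderOf_dvd_natCard K hx)
      rw [Nat.odd_iff] at hKodd
      omega⟩
    have hKbot := hO _ hKn (by
      rwa [← Nat.card_congr (K.equivMapOfInjective _ N.subtype_injective).toEquiv])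
    have hK1 : Nat.card K = 1 := by
      rw [Nat.card_congr (K.equivMapOfInjective _ N.subtype_injective).toEquiv, hKbot,
        Subgroup.card_bot]
    have h := hK.card_mul
    rw [hZ'card, hK1, mul_one] at h
    refine hG (Subgroup.eq_top_of_card_eq _ ?_)
    rw [hs.card, hG8, ← h]
  · intro s t hs' ht'
    haveI : Subsingleton (CfsgLib.Involution.InvolutionClass (G ⧸ Z)) :=
      (Nat.card_eq_one_iff_unique.1 h1).1
    have := congrArg Subtype.val (Subsingleton.elim
      (⟨ConjClasses.mk s, s, hs', rfl⟩ : CfsgLib.Involution.InvolutionClass (G ⧸ Z))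
      ⟨ConjClasses.mk t, t, ht', rfl⟩)
    exact ConjClasses.mk_eq_mk_iff_isConj.1 this

open scoped Classical in
/-- The principal block has seven members. -/
theorem card_principalBlock (hM : IsPModular 2 M) (e : (S : Subgroup G) ≃* QuaternionGroup 2)
    (hO : ∀ N : Subgroup G, N.Normal → Odd (Nat.card N) → N = ⊥) (hG : (S : Subgroup G) ≠ ⊤) :
    Nat.card (principalBlock M G) = 7 := by
  haveI : Fact (Nat.Prime 2) := ⟨Nat.prime_two⟩
  haveI := isMaximal_of_isPModular hM
  obtain ⟨z, hs, hZ⟩ := exists_setting e hO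
  set Z := Subgroup.center G with hZdef
  haveI : Fintype (G ⧸ Z) := Fintype.ofFinite _
  obtain ⟨P, hPK, hone⟩ := quotient_one_class hs hO hG Z hZ
  obtain ⟨ζ₂, ζ₃, ζ₄, ε, hε, h2one, h3one, h23, h24, h34, hB, hval, -, -, -, hrel⟩ :=
    Cfsg.Agent.S0948.result M hM P hPK hone
  have hzZ : z ∈ Z := hs.central
  have hZp : IsPGroup 2 Z := IsPGroup.of_card (n := 1) (by
    rw [hZ, Nat.card_zpowers, hs.order, pow_one])
  have hbl := (Cfsg.Agent.S0941.result 2 M hM Z hZp ⟨0, by
    rw [pow_zero, Subgroup.index_eq_one, Subgroup.centralizer_eq_top_iff_subset]⟩).1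
  set B := principalBlock M G with hBdef
  have hBb : IsPBlock M B := isPBlock_principalBlock
  have hinfl : ∀ χ : IrrCharacter (G ⧸ Z),
      Chars.inflate Z χ ∈ B ↔ χ ∈ principalBlock M (G ⧸ Z) := by
    intro χ
    have h := hbl (Chars.oneChar (G ⧸ Z)) χ
    rw [Chars.oneChar_coe] at h
    exact h.symm
  -- the two kinds of members
  let one := Chars.oneChar (G ⧸ Z)
  let U : Fin 4 → IrrCharacter (G ⧸ Z) := ![one, ζ₂, ζ₃, ζ₄]
  have hU : ∀ χ : IrrCharacter (G ⧸ Z), χ ∈ principalBlock M (G ⧸ Z) ↔ ∃ i, U i = χ := by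
    intro χ
    rw [hB, Set.mem_setOf_eq]
    constructor
    · rintro (h | rfl | rfl | rfl)
      exacts [⟨0, Subtype.ext ((Chars.oneChar_coe).trans h.symm)⟩, ⟨1, rfl⟩, ⟨2, rfl⟩, ⟨3, rfl⟩]
    · rintro ⟨i, rfl⟩
      fin_cases i
      exacts [Or.inl Chars.oneChar_coe, Or.inr (Or.inl rfl), Or.inr (Or.inr (Or.inl rfl)),
        Or.inr (Or.inr (Or.inr rfl))]
  obtain ⟨y, hy, hy1⟩ : ∃ y : G ⧸ Z, y ∈ (P : Subgroup (G ⧸ Z)) ∧ y ≠ 1 := by
    haveI : Nontrivial (P : Subgroup (G ⧸ Z)) :=
      Finite.one_lt_card_iff_nontrivial.1 (by rw [hPK.card_four]; norm_num)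
    obtain ⟨⟨y, hy⟩, hne⟩ := exists_ne (1 : (P : Subgroup (G ⧸ Z)))
    exact ⟨y, hy, fun h => hne (Subtype.ext h)⟩
  have hy2 : orderOf y = 2 := by
    haveI := hPK
    exact orderOf_eq_prime (by
      rw [pow_two]; exact congrArg Subtype.val (IsKleinFour.mul_self (⟨y, hy⟩ : (P : Subgroup (G ⧸ Z))))) hy1
  have hUinj : Function.Injective U := by
    have hne4 : (ζ₄ : G ⧸ Z → ℂ) ≠ fun _ => 1 := by
      intro h
      have := (hval y hy2).2.2
      rw [h] at this
      norm_num at this
    intro i j hij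
    have e2 : one ≠ ζ₂ := fun h => h2one (by rw [← h]; exact Chars.oneChar_coe)
    have e3 : one ≠ ζ₃ := fun h => h3one (by rw [← h]; exact Chars.oneChar_coe)
    have e4 : one ≠ ζ₄ := fun h => hne4 (by rw [← h]; exact Chars.oneChar_coe)
    fin_cases i <;> fin_cases j <;> first
      | rfl
      | exact absurd hij e2 | exact absurd hij e3 | exact absurd hij e4
      | exact absurd hij e2.symm | exact absurd hij e3.symm | exact absurd hij e4.symm
      | exact absurd hij h23 | exact absurd hij h24 | exact absurd hij h34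
      | exact absurd hij h23.symm | exact absurd hij h24.symm | exact absurd hij h34.symm
  let F : Finset (IrrCharacter G) :=
    B.toFinite.toFinset.filter fun χ : IrrCharacter G => ¬ Z ≤ Chars.charKer (χ : G → ℂ)
  let Uf : Finset (IrrCharacter G) := Finset.univ.image fun i => Chars.inflate Z (U i)
  have hUf : Uf = B.toFinite.toFinset.filter fun χ : IrrCharacter G => Z ≤ Chars.charKer (χ : G → ℂ) := by
    ext χ
    simp only [Uf, Finset.mem_image, Finset.mem_univ, true_and, Finset.mem_filter,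
      Set.Finite.mem_toFinset]
    constructor
    · rintro ⟨i, rfl⟩
      exact ⟨(hinfl _).2 ((hU _).2 ⟨i, rfl⟩), Chars.le_charKer_inflate Z _⟩
    · rintro ⟨hχ, hk⟩
      obtain ⟨χ', rfl⟩ := Chars.exists_inflate_eq Z χ hk
      obtain ⟨i, hi⟩ := (hU χ').1 ((hinfl _).1 hχ)
      exact ⟨i, by rw [hi]⟩
  have hUcard : Uf.card = 4 := by
    show (Finset.univ.image fun i => Chars.inflate Z (U i)).card = 4
    rw [Finset.card_image_of_injective _ (f := fun i => Chars.inflate Z (U i))
      ((Chars.inflate_injective Z).comp hUinj)]; rfl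
  have hsplit : ∀ f : IrrCharacter G → ℂ, ∑ χ ∈ B.toFinite.toFinset, f χ =
      ∑ χ ∈ Uf, f χ + ∑ χ ∈ F, f χ := fun f => by
    rw [hUf]; exact (Finset.sum_filter_add_sum_filter_not _ _ _).symm
  suffices hF : F.card = 3 by
    rw [Nat.card_coe_set_eq, Set.ncard_eq_toFinset_card B B.toFinite,
      ← Finset.card_filter_add_card_filter_not (fun χ : IrrCharacter G => Z ≤ Chars.charKer (χ : G → ℂ)),
      ← hUf, hUcard]
    change 4 + F.card = 7
    rw [hF]
  -- values at `z`
  have hzU : ∀ χ ∈ Uf, ∀ g, (χ : G → ℂ) (z * g) = (χ : G → ℂ) g := fun χ hχ g => by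
    rw [hUf] at hχ
    exact (Finset.mem_filter.1 hχ).2 hzZ g
  have hzF : ∀ χ ∈ F, ∀ g, (χ : G → ℂ) (z * g) = - (χ : G → ℂ) g := by
    intro χ hχ g
    obtain ⟨c, hc⟩ := Chars.exists_scalar_of_mem_center χ hs.central
    have hzz : z * z = 1 := by rw [← pow_two, ← hs.order, pow_orderOf_eq_one]
    have h1 : c * c = 1 := by
      have h := hc (z * 1)
      rw [hc 1, ← mul_assoc z, hzz, one_mul, ← mul_assoc] at h
      exact mul_right_cancel₀ (Chars.map_one_ne_zero χ) (by rw [one_mul]; exact h.symm)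
    rcases mul_self_eq_one_iff.1 h1 with h | h
    · exfalso
      refine (Finset.mem_filter.1 hχ).2 ?_
      rw [hZ, Subgroup.zpowers_le]
      intro g'
      rw [hc, h, one_mul]
    · rw [hc, h, neg_one_mul]
  -- values on the sections of order four
  have hubar : ∀ u : G, orderOf u = 4 → orderOf (u : G ⧸ Z) = 2 := by
    intro u hu
    have hux : ∃ k : ℕ, orderOf u = 2 ^ k := ⟨2, by rw [hu]; norm_num⟩
    rcases two_element_cases hs hux with rfl | rfl | ⟨-, h⟩
    · simp at hu
    · rw [hs.order] at hu; norm_num at hu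
    refine orderOf_eq_prime ?_ fun h1 => ?_
    · rw [pow_two, ← QuotientGroup.mk_mul, h]; exact (QuotientGroup.eq_one_iff _).2 hzZ
    · rw [QuotientGroup.eq_one_iff, hZ] at h1
      have : orderOf u ∣ 2 := by
        have h2 := Subgroup.orderOf_dvd_natCard _ h1
        rwa [Nat.card_zpowers, hs.order] at h2
      rw [hu] at this
      norm_num at this
  have hUval : ∀ u : G, orderOf u = 4 → ∀ i : Fin 4,
      (Chars.inflate Z (U i) : G → ℂ) u = ![1, 1, (ε : ℂ), -1] i := by
    intro u hu i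
    obtain ⟨e2, e3, e4⟩ := hval _ (hubar u hu)
    fin_cases i
    exacts [Chars.oneChar_apply _, e2, e3, e4]
  have hFu : ∀ u : G, orderOf u = 4 → ∀ χ ∈ F, (χ : G → ℂ) u = 0 := by
    intro u hu χ hχ
    have h4 := (section_four hM hs hu).2
    have hUsum : ∑ χ ∈ Uf, ‖(χ : G → ℂ) u‖ ^ 2 = 4 := by
      show ∑ χ ∈ Finset.univ.image (fun i => Chars.inflate Z (U i)), ‖(χ : G → ℂ) u‖ ^ 2 = 4
      rw [Finset.sum_image (g := fun i => Chars.inflate Z (U i))
          (fun i _ j _ h => hUinj (Chars.inflate_injective Z h)),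
        Finset.sum_congr rfl fun i _ => by rw [hUval u hu i], Fin.sum_univ_four]
      rcases hε with rfl | rfl <;> simp <;> norm_num
    have hle : ∑ χ ∈ Uf, ‖(χ : G → ℂ) u‖ ^ 2 + ∑ χ ∈ F, ‖(χ : G → ℂ) u‖ ^ 2 ≤ 4 := by
      rw [hUf, Finset.sum_filter_add_sum_filter_not]; exact h4
    have h0 := Finset.single_le_sum (s := F) (f := fun χ : IrrCharacter G => ‖(χ : G → ℂ) u‖ ^ 2)
      (fun χ _ => sq_nonneg _) hχ
    have : ‖(χ : G → ℂ) u‖ ^ 2 ≤ 0 := by linarith
    exact norm_eq_zero.1 (pow_eq_zero_iff two_ne_zero |>.1 (le_antisymm this (sq_nonneg _)))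
  -- an element is regular, `z` times regular, or in a section of order four
  have hclass : ∀ g : G, (¬ 2 ∣ orderOf g) ∨ (∃ s, ¬ 2 ∣ orderOf s ∧ g = z * s) ∨
      ∃ u s, orderOf u = 4 ∧ Commute u s ∧ ¬ 2 ∣ orderOf s ∧ g = u * s := by
    intro g
    obtain ⟨x, s, hxs, hcomm, hx, hso⟩ := exists_isPPart Nat.prime_two g
    rcases two_element_cases hs hx with rfl | rfl | ⟨h4, -⟩
    · left; rw [← hxs, one_mul]; exact hso
    · exact Or.inr (Or.inl ⟨s, hso, hxs.symm⟩)
    · exact Or.inr (Or.inr ⟨x, s, h4, hcomm, hso, hxs.symm⟩)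
  -- the restrictions to regular elements
  let R := {g : G // ¬ 2 ∣ orderOf g}
  let A : Matrix Uf R ℂ := Matrix.of fun χ g => (χ.1 : G → ℂ) g.1
  let B' : Matrix F R ℂ := Matrix.of fun χ g => (χ.1 : G → ℂ) g.1
  have hgram : A.conjTranspose * A = B'.conjTranspose * B' := by
    ext x y
    simp only [Matrix.mul_apply, Matrix.conjTranspose_apply, A, B', Matrix.of_apply, RCLike.star_def]
    rw [Finset.sum_coe_sort Uf (fun χ => conj ((χ : G → ℂ) x.1) * (χ : G → ℂ) y.1),
      Finset.sum_coe_sort F (fun χ => conj ((χ : G → ℂ) x.1) * (χ : G → ℂ) y.1)]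
    have hsing : 2 ∣ orderOf (z * y.1) := by
      rw [(show Commute z y.1 from (Subgroup.mem_center_iff.1 hs.central y.1).symm).orderOf_mul_eq_mul_orderOf_of_coprime
        (by rw [hs.order]; exact Nat.prime_two.coprime_iff_not_dvd.2 y.2), hs.order]
      exact dvd_mul_right 2 _
    have h := finsum_block_singular_mul_conj_regular hM hBb hsing x.2
    rw [finsum_block_eq_sum, hsplit, Finset.sum_congr (rfl : Uf = Uf) (g := fun χ : IrrCharacter G =>
        conj ((χ : G → ℂ) x.1) * (χ : G → ℂ) y.1) fun χ hχ => by rw [hzU χ hχ, mul_comm],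
      Finset.sum_congr (rfl : F = F) (g := fun χ : IrrCharacter G =>
        -(conj ((χ : G → ℂ) x.1) * (χ : G → ℂ) y.1)) fun χ hχ => by rw [hzF χ hχ]; ring,
      Finset.sum_neg_distrib, ← sub_eq_add_neg, sub_eq_zero] at h
    exact h
  have hrank : A.rank = B'.rank := by
    rw [← Matrix.rank_conjTranspose_mul_self A, hgram, Matrix.rank_conjTranspose_mul_self]
  have hBrank : B'.rank = F.card := by
    have hli : LinearIndependent ℂ B'.row := by
      rw [Fintype.linearIndependent_iff]
      intro c hc χ₀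
      have hreg : ∀ g : R, ∑ χ : F, c χ * (χ.1 : G → ℂ) g.1 = 0 := fun g => by
        simpa [Matrix.row, B'] using congrFun hc g
      have hall : ∀ g : G, ∑ χ : F, c χ * (χ.1 : G → ℂ) g = 0 := by
        intro g
        rcases hclass g with h | ⟨s, hso, rfl⟩ | ⟨u, s, hu, hcomm, hso, rfl⟩
        · exact hreg ⟨g, h⟩
        · rw [Finset.sum_congr rfl fun χ _ => by rw [hzF χ.1 χ.2, mul_neg], Finset.sum_neg_distrib,
            hreg ⟨s, hso⟩, neg_zero]
        · refine Finset.sum_eq_zero fun χ _ => ?_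
          rw [(section_four hM hs hu).1 χ.1 ((Set.Finite.mem_toFinset _).1
            (Finset.mem_filter.1 χ.2).1) s hcomm hso, hFu u hu χ.1 χ.2, mul_zero]
      have hLI := Fintype.linearIndependent_iff.1
        ((Chars.linearIndependent_irr (G := G)).comp (fun χ : F => χ.1) Subtype.val_injective) c
      exact hLI (funext fun g => by simpa using hall g) χ₀
    rw [hli.rank_matrix, Fintype.card_coe]
  have hArank : A.rank = 3 := by
    let r : Fin 4 → (R → ℂ) := fun i g => (U i : G ⧸ Z → ℂ) (g.1 : G ⧸ Z)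
    have hregbar : ∀ g : R, Odd (orderOf (g.1 : G ⧸ Z)) := fun g =>
      (Nat.odd_iff.2 (by have := g.2; omega) : Odd (orderOf g.1)).of_dvd_nat
        (orderOf_map_dvd (QuotientGroup.mk' Z) g.1)
    let T : Fin 3 → (R → ℂ) := fun i => r i.castSucc
    have hr3 : r 3 = r 0 + r 1 + (ε : ℂ) • r 2 := by
      funext g
      have h := hrel _ (hregbar g)
      simp only [r, Pi.add_apply, Pi.smul_apply, smul_eq_mul, U, Matrix.cons_val]
      rw [show (one : G ⧸ Z → ℂ) (g.1 : G ⧸ Z) = 1 from Chars.oneChar_apply _]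
      linear_combination -h
    have hspan : Submodule.span ℂ (Set.range A.row) = Submodule.span ℂ (Set.range T) := by
      refine le_antisymm (Submodule.span_le.2 ?_) (Submodule.span_le.2 ?_)
      · rintro _ ⟨⟨χ, hχ⟩, rfl⟩
        obtain ⟨i, -, rfl⟩ := Finset.mem_image.1 hχ
        have hrow : A.row ⟨Chars.inflate Z (U i), hχ⟩ = r i := rfl
        rw [hrow, SetLike.mem_coe]
        have hT : ∀ j : Fin 3, r j.castSucc ∈ Submodule.span ℂ (Set.range T) :=
          fun j => Submodule.subset_span ⟨j, rfl⟩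
        induction i using Fin.lastCases with
        | last =>
          rw [show (Fin.last 3) = (3 : Fin 4) from rfl, hr3]
          exact add_mem (add_mem (hT 0) (hT 1)) (Submodule.smul_mem _ _ (hT 2))
        | cast j => exact hT j
      · rintro _ ⟨j, rfl⟩
        exact Submodule.subset_span ⟨⟨Chars.inflate Z (U j.castSucc),
          Finset.mem_image.2 ⟨_, Finset.mem_univ _, rfl⟩⟩, rfl⟩
    have hli : LinearIndependent ℂ T := by
      rw [Fintype.linearIndependent_iff]
      intro c hc
      set κ : ℂ := c 0 + c 1 + (ε : ℂ) * c 2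
      -- correct by the relation
      let w : Fin 4 → ℂ := ![c 0 - κ / 4, c 1 - κ / 4, c 2 - κ / 4 * ε, κ / 4]
      have hw : ∀ g : G, ∑ i, w i * (Chars.inflate Z (U i) : G → ℂ) g = 0 := by
        intro g
        have hzero : ∀ s : R, ∑ i, w i * (U i : G ⧸ Z → ℂ) (s.1 : G ⧸ Z) = 0 := by
          intro s
          have h1 := congrFun hc s
          have h2 := congrFun hr3 s
          simp only [Fin.sum_univ_three, Pi.add_apply, Pi.smul_apply, smul_eq_mul, T, r,
            Pi.zero_apply, Fin.castSucc_zero, Fin.castSucc_one,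
            show (2 : Fin 3).castSucc = (2 : Fin 4) from rfl] at h1 h2
          simp only [Fin.sum_univ_four, w, Matrix.cons_val]
          linear_combination h1 + κ / 4 * h2
        rcases hclass g with h | ⟨s, hso, rfl⟩ | ⟨u, s, hu, hcomm, hso, rfl⟩
        · exact hzero ⟨g, h⟩
        · rw [Finset.sum_congr rfl fun i _ => by
            rw [hzU _ (Finset.mem_image.2 ⟨i, Finset.mem_univ _, rfl⟩)]]
          exact hzero ⟨s, hso⟩
        · rw [Finset.sum_congr rfl fun i _ => by
            rw [(section_four hM hs hu).1 _ ((hinfl _).2 ((hU _).2 ⟨i, rfl⟩)) s hcomm hso,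
              hUval u hu i]]
          simp only [Fin.sum_univ_four, w, Matrix.cons_val, κ]
          rcases hε with rfl | rfl <;> push_cast <;> ring
      have hLI := Fintype.linearIndependent_iff.1
        ((Chars.linearIndependent_irr (G := G)).comp (fun i => Chars.inflate Z (U i))
          ((Chars.inflate_injective Z).comp hUinj)) w (funext fun g => by simpa using hw g)
      have hκ : κ / 4 = 0 := by simpa [w] using hLI 3
      intro i
      fin_cases i
      · simpa [w, hκ] using hLI 0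
      · simpa [w, hκ] using hLI 1
      · simpa [w, hκ] using hLI 2
    rw [Matrix.rank_eq_finrank_span_row, hspan, finrank_span_eq_card hli, Fintype.card_fin]
  omega

end CfsgLib.QuatEightBlock
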